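import Cfsg.Agent.H15.TI2
import Cfsg.Agent.H3.SylowIn

/-! Sections of finite groups with a large abelian subgroup. -/

set_option autoImplicit false

namespace Cfsg.Agent.H15

open Subgroup

/-- `A` is a section of `G` -/
def Sec (G A : Type*) [Group G] [Group A] : Prop := ∃ (M : Subgroup G) (π : M →* A), Function.Surjective π

section

variable {G G' A B : Type*} [Group G] [Group G'] [Group A] [Group B]

theorem Sec.of_quot {H : Subgroup G} {N : Subgroup H} [N.Normal] (e : H ⧸ N ≃* A) : Sec G A :=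
  ⟨H, e.toMonoidHom.comp (QuotientGroup.mk' N), e.surjective.comp (QuotientGroup.mk'_surjective N)⟩

theorem Sec.left (h : Sec G A) {j : G →* G'} (hj : Function.Injective j) : Sec G' A := by
  obtain ⟨M, π, hπ⟩ := h
  exact ⟨M.map j, π.comp (M.equivMapOfInjective j hj).symm.toMonoidHom, hπ.comp (MulEquiv.surjective _)⟩

theorem Sec.right (h : Sec G A) {i : B →* A} (hi : Function.Injective i) : Sec G B := by
  obtain ⟨M, π, hπ⟩ := h
  exact Sec.left ⟨i.range.comap π, (MonoidHom.ofInjective hi).symm.toMonoidHom.comp (π.subgroupComap _),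
    (MonoidHom.ofInjective hi).symm.surjective.comp (π.subgroupComap_surjective_of_surjective _ hπ)⟩ M.subtype_injective

theorem Sec.alt {n r : ℕ} (h : Sec G (alternatingGroup (Fin r))) (hn : n ≤ r) : Sec G (alternatingGroup (Fin n)) := by
  let f := Equiv.Perm.viaEmbeddingHom (Fin.castLEEmb hn)
  refine h.right (i := (f.comp (alternatingGroup _).subtype).codRestrict _ fun g => ?_) fun a b e =>
    Subtype.ext (Equiv.Perm.viaEmbeddingHom_injective _ (congrArg Subtype.val e))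
  have := g.2
  rw [Equiv.Perm.mem_alternatingGroup] at this ⊢
  simp only [f, Equiv.Perm.viaEmbeddingHom, Equiv.Perm.extendDomainHom, MonoidHom.comp_apply, MonoidHom.coe_mk, OneHom.coe_mk]
  convert (Equiv.Perm.sign_extendDomain g.1 (Equiv.ofInjective (Fin.castLE hn) (Fin.castLE_injective hn))).trans this <;> rfl

variable {H : Type*} [Group H] [Finite H] {π : H →* A} {p : ℕ} [hp : Fact p.Prime]

theorem exists_plift (hπ : Function.Surjective π) {X : Subgroup A} (hX : IsPGroup p X) :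
    ∃ Q : Subgroup H, IsPGroup p Q ∧ Q.map π = X ∧ ∀ g ∈ normalizer (X : Set A), ∃ g' ∈ normalizer (Q : Set H), π g' = g := by
  obtain ⟨Q, hQ⟩ := H3.exists_sylowIn p (X.comap π)
  have h1 : Q.map π = X := by
    have := hQ.map π
    rw [map_comap_eq_self_of_surjective hπ] at this
    exact (this.eq_of_le hX le_rfl this.le).symm
  refine ⟨Q, hQ.isPGroup, h1, fun g hg => ?_⟩
  obtain ⟨g, rfl⟩ := hπ g
  obtain ⟨n, hn, m, hm, rfl⟩ := hQ.frattini (le_normalizer_comap π hg)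
  obtain ⟨y, hy, e⟩ := h1.ge hn
  exact ⟨y * m, mul_mem (le_normalizer hy) hm, by rw [map_mul, map_mul, e]⟩

theorem exists_eig {Q : Subgroup H} (hQ : IsPGroup p Q) (hc : ∀ a ∈ Q, ∀ b ∈ Q, a * b = b * a) {x : A}
    (hx : Q.map π = zpowers x) (h1 : x ≠ 1) {g : H} (hg : g ∈ normalizer (Q : Set H)) {k : ℕ}
    (e : π g * x * (π g)⁻¹ = x ^ k) : ∃ s ∈ Q, orderOf s = p ∧ g * s * g⁻¹ = s ^ k := by
  have a1 : ∀ a ∈ Q, g * a * g⁻¹ ∈ Q := fun a ha => (mem_normalizer_iff.1 hg a).1 ha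
  let f : Q →* Q := MonoidHom.mk' (fun a => ⟨g * a * g⁻¹, a1 a a.2⟩ * (a ^ k)⁻¹) fun a b => by
    have c : ∀ a b : Q, Commute a b := fun a b => Subtype.ext (hc a a.2 b b.2)
    rw [(c a b).mul_pow, (c (a ^ k) _).eq, mul_inv_rev, ← (c _ _).mul_mul_mul_comm]
    congr 1
    exact Subtype.ext (by simp [mul_assoc])
  have a2 : ¬ Function.Injective f := fun h => by
    obtain ⟨y, hy, e'⟩ := hx.ge (mem_zpowers x)
    obtain ⟨a, ha⟩ := Finite.injective_iff_surjective.1 h ⟨y, hy⟩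
    obtain ⟨i, hi⟩ := hx.le ⟨a, a.2, rfl⟩
    have : y = g * a * g⁻¹ * ((a : H) ^ k)⁻¹ := (congrArg Subtype.val ha).symm
    rw [this, map_mul, map_mul, map_mul, map_inv, map_inv, map_pow, ← hi, ← conj_zpow, e, ← zpow_natCast,
      ← zpow_natCast, ← zpow_mul, ← zpow_mul, mul_comm i, mul_inv_cancel] at e'
    exact h1 e'.symm
  rw [injective_iff_map_eq_one] at a2
  push Not at a2
  obtain ⟨s, hs, hs1⟩ := a2
  obtain ⟨j, hj⟩ := (IsPGroup.iff_orderOf.1 hQ) s
  obtain ⟨n, hn⟩ := exists_pow_prime (p := p) (g := (s : H)) (by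
    rw [orderOf_coe, hj]; exact dvd_pow_self _ fun h => hs1 (orderOf_eq_one_iff.1 (by rw [hj, h, pow_zero])))
  refine ⟨_, pow_mem s.2 n, hn, ?_⟩
  rw [← conj_pow, show g * s * g⁻¹ = s ^ k from mul_inv_eq_one.1 (congrArg Subtype.val hs), ← pow_mul, ← pow_mul, mul_comm]

variable [Finite G] {T : Subgroup G} (hT : ∀ a ∈ T, ∀ b ∈ T, a * b = b * a)

theorem exists_conj_hom {j : H →* G} (hj : Function.Injective j) {Q : Subgroup H} (hQ : IsPGroup p Q) (hi : ¬ p ∣ T.index) :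
    ∃ j' : H →* G, Function.Injective j' ∧ ∀ a ∈ Q, j' a ∈ T := by
  obtain ⟨c, hc⟩ := exists_conj_le_of_not_dvd_index (hQ.map j) hi
  exact ⟨(MulAut.conj c).toMonoidHom.comp j, (MulAut.conj c).injective.comp hj, fun a ha => hc _ ⟨a, ha, rfl⟩⟩

omit hp in
theorem mem_normalizer_zpowers [Finite A] {x g : A} {k : ℕ} (e : g * x * g⁻¹ = x ^ k) : g ∈ normalizer (zpowers x : Set A) :=
  H3.mem_normalizer_of_conj_mem (by
    rintro _ ⟨i, rfl⟩
    rw [← conj_zpow, e]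
    exact zpow_mem (pow_mem (mem_zpowers x) k) i)

include hT

theorem Sec.exists_conj (h : Sec G A) {x g : A} (hx : orderOf x = p) {k : ℕ} (e : g * x * g⁻¹ = x ^ k) (hi : ¬ p ∣ T.index) :
    ∃ s ∈ T, orderOf s = p ∧ ∃ y, y * s * y⁻¹ = s ^ k := by
  obtain ⟨M, π, hπ⟩ := h
  have := Finite.of_surjective π hπ
  obtain ⟨Q, a1, a2, a3⟩ := exists_plift hπ (H11.isPGroup_zpowers_of_orderOf (hx.trans (pow_one p).symm))
  obtain ⟨g, a4, rfl⟩ := a3 g (mem_normalizer_zpowers e)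
  obtain ⟨j, b1, b2⟩ := exists_conj_hom M.subtype_injective a1 hi
  obtain ⟨s, c1, c2, c3⟩ := exists_eig a1 (fun a ha b hb => b1 (by simpa using hT _ (b2 a ha) _ (b2 b hb))) a2
    (fun h => hp.out.ne_one (by rw [← hx, h, orderOf_one])) a4 e
  exact ⟨j s, b2 s c1, (orderOf_injective j b1 s).trans c2, j g, by simpa using congrArg j c3⟩

omit hp in
theorem mem_centralizer_of_coprime {Q : Subgroup G} (hQ : Q ≤ T) {z : G} (hz : z ∈ normalizer (Q : Set G))
    (h : (orderOf z).Coprime T.index) : z ∈ centralizer (Q : Set G) := by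
  have a1 : T ≤ centralizer (Q : Set G) := fun a ha b hb => hT b (hQ hb) a ha
  have a2 := pow_index_mem (H := (centralizer (Q : Set G)).subgroupOf (normalizer (Q : Set G))) ⟨z, hz⟩
  have a3 : (centralizer (Q : Set G)).relIndex (normalizer (Q : Set G)) ∣ T.index :=
    (relIndex_dvd_index_of_le (centralizer_le_normalizer _)).trans (index_dvd_of_le a1)
  obtain ⟨n, hn⟩ := exists_pow_eq_self_of_coprime (h.coprime_dvd_right a3).symm
  exact hn ▸ pow_mem a2 n

theorem Sec.exists_conj₂ (h : Sec G A) {p' : ℕ} [hp' : Fact p'.Prime] (hpp : p ≠ p') {x x' g : A} (hx : orderOf x = p)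
    (hx' : orderOf x' = p') (hc : Commute x x') {k : ℕ} (e : g * x * g⁻¹ = x ^ k) (e' : g * x' * g⁻¹ = x' ^ k)
    (hi : ¬ p ∣ T.index) (hi' : ¬ p' ∣ T.index) : ∃ s ∈ T, orderOf s = p * p' ∧ ∃ y, y * s * y⁻¹ = s ^ k := by
  obtain ⟨M, π, hπ⟩ := h
  have := Finite.of_surjective π hπ
  obtain ⟨Q, a1, a2, a3⟩ := exists_plift hπ (H11.isPGroup_zpowers_of_orderOf (hx.trans (pow_one p).symm))
  obtain ⟨j, b1, b2⟩ := exists_conj_hom M.subtype_injective a1 hi
  let N := normalizer (Q : Set M)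
  let π' : N →* N.map π := π.subgroupMap N
  have d1 : x' ∈ N.map π := a3 x' (mem_normalizer_zpowers (k := 1) (by rw [← hc.eq]; simp))
  have d2 : g ∈ N.map π := a3 g (mem_normalizer_zpowers e)
  have hx'' : orderOf (⟨x', d1⟩ : N.map π) = p' := (orderOf_mk _ _).trans hx'
  have e'' : (⟨g, d2⟩ : N.map π) * ⟨x', d1⟩ * ⟨g, d2⟩⁻¹ = ⟨x', d1⟩ ^ k := Subtype.ext e'
  obtain ⟨Q', a1', a2', a3'⟩ := exists_plift (π.subgroupMap_surjective N)
    (H11.isPGroup_zpowers_of_orderOf (hx''.trans (pow_one p').symm))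
  obtain ⟨g', a4, a5⟩ := a3' _ (mem_normalizer_zpowers e'')
  obtain ⟨j', b1', b2'⟩ := exists_conj_hom (j := M.subtype.comp N.subtype) (M.subtype_injective.comp N.subtype_injective) a1' hi'
  obtain ⟨s', c1', c2', c3'⟩ := exists_eig a1' (fun a ha b hb => b1' (by simpa using hT _ (b2' a ha) _ (b2' b hb))) a2'
    (fun h => hp'.out.ne_one (by rw [← hx'', h, orderOf_one])) a4 (a5 ▸ e'')
  obtain ⟨s, c1, c2, c3⟩ := exists_eig a1 (fun a ha b hb => b1 (by simpa using hT _ (b2 a ha) _ (b2 b hb))) a2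
    (fun h => hp.out.ne_one (by rw [← hx, h, orderOf_one])) g'.2 (k := k) (by
      rw [show π g' = g from congrArg Subtype.val a5]; exact e)
  have f1 : orderOf (j s') = p' := (orderOf_injective j b1 _).trans ((orderOf_coe _).trans c2')
  have f2 : j s' ∈ centralizer {j s} := centralizer_le (by simpa using mem_map_of_mem j c1)
    (mem_centralizer_of_coprime hT (Q := Q.map j) (by rintro _ ⟨a, ha, rfl⟩; exact b2 a ha)
      (le_normalizer_map j ⟨_, s'.2, rfl⟩) (f1 ▸ (hp'.out.coprime_iff_not_dvd).2 hi'))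
  have f3 : T ≤ centralizer {j s} := fun a ha b hb => hb ▸ hT _ (b2 s c1) a ha
  obtain ⟨d, hd⟩ := exists_conj_mem_of_not_dvd_index hp'.out (H := T.subgroupOf (centralizer {j s})) (g := ⟨_, f2⟩)
    ((orderOf_mk _ _).trans f1) fun h => hi' (h.trans (relIndex_dvd_index_of_le f3))
  have f4 : Commute (j s) (j s') := f2 _ rfl
  have f5 : (d : G) * j s * (d : G)⁻¹ = j s := by rw [← d.2 _ rfl]; simp
  refine ⟨d * (j s * j s') * (d : G)⁻¹, ?_, ?_, d * j g' * (d : G)⁻¹, ?_⟩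
  · rw [← conj_mul, f5]; exact mul_mem (b2 s c1) hd
  · rw [← MulAut.conj_apply, MulEquiv.orderOf_eq, f4.orderOf_mul_eq_mul_orderOf_of_coprime, f1, orderOf_injective j b1, c2]
    rw [f1, orderOf_injective j b1, c2]; exact (Nat.coprime_primes hp.out hp'.out).2 hpp
  · rw [conj_pow, f4.mul_pow, ← map_pow, ← map_pow, ← c3, ← show g' * s' * (g' : M)⁻¹ = (s' : M) ^ k from congrArg Subtype.val c3']
    simp [mul_assoc]

end

section

variable {G S : Type*} [Group G] [Group S] [Finite G]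

theorem Sec.exists_le (h : Sec G S) {p : ℕ} [Fact p.Prime] (hS : IsPGroup p S) {N : Subgroup G} (hN : ¬ p ∣ N.index) :
    ∃ Q ≤ N, IsPGroup p Q ∧ ∃ π : Q →* S, Function.Surjective π := by
  obtain ⟨M, π, hπ⟩ := h
  obtain ⟨Q, a1, a2, -⟩ := exists_plift hπ (hS.to_subgroup ⊤)
  obtain ⟨j, b1, b2⟩ := exists_conj_hom M.subtype_injective a1 hN
  refine ⟨Q.map j, by rintro _ ⟨a, ha, rfl⟩; exact b2 a ha, a1.map j,
    (π.comp Q.subtype).comp (Q.equivMapOfInjective j b1).symm.toMonoidHom, Function.Surjective.comp (g := π.comp Q.subtype) (fun s => ?_) (Q.equivMapOfInjective j b1).symm.surjective⟩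
  obtain ⟨a, ha, e⟩ := a2.ge (mem_top s)
  exact ⟨⟨a, ha⟩, e⟩

theorem card_range_le {C : Type*} [CommGroup C] [Finite C] (ψ : C →* S)
    (h : ∀ a b : S, a * b = b * a → a ^ 2 = 1 ∨ b ^ 2 = 1 ∨ a ^ 2 = b ^ 2) :
    Nat.card ψ.range ≤ 2 * Nat.card {c : C // c ^ 2 = 1} := by
  let f := powMonoidHom (α := C) 2
  let R := f.range.map ψ.rangeRestrict
  have := Finite.of_surjective _ ψ.rangeRestrict_surjective
  have h1 : R.index ≤ Nat.card {c : C // c ^ 2 = 1} :=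
    (Nat.le_of_dvd (Nat.pos_of_ne_zero index_ne_zero_of_finite) (index_map_dvd _ ψ.rangeRestrict_surjective)).trans_eq
      (index_range.trans rfl)
  have h2 : Nat.card R ≤ 2 := by
    by_contra! h2
    have := Fintype.ofFinite R
    rw [Nat.card_eq_fintype_card, Fintype.two_lt_card_iff] at h2
    have h3 : ∀ a b : R, a = 1 ∨ b = 1 ∨ a = b := by
      rintro ⟨_, _, ⟨a, rfl⟩, rfl⟩ ⟨_, _, ⟨b, rfl⟩, rfl⟩
      simpa [Subtype.ext_iff, f] using h (ψ a) (ψ b) (by rw [← map_mul, mul_comm, map_mul])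
    obtain ⟨a, b, c, e1, e2, e3⟩ := h2
    have := h3 a b; have := h3 a c; have := h3 b c
    grind
  rw [← R.card_mul_index]
  exact Nat.mul_le_mul h2 h1

theorem not_sec_two (hS : IsPGroup 2 S) (hc : 32 < Nat.card S)
    (h : ∀ a b : S, a * b = b * a → a ^ 2 = 1 ∨ b ^ 2 = 1 ∨ a ^ 2 = b ^ 2) {N : Subgroup G} (hN : ¬ 2 ∣ N.index)
    {W : Type*} [Group W] (φ : N →* W) (hW : ¬ 8 ∣ Nat.card W) {C : Type*} [CommGroup C] [Finite C] (f : C →* G)
    (hf : ∀ n, φ n = 1 → (n : G) ∈ f.range) (hC : Nat.card {c : C // c ^ 2 = 1} ≤ 4) : ¬ Sec G S := fun hs => by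
  obtain ⟨Q, a1, a2, π, hπ⟩ := hs.exists_le hS hN
  have := Finite.of_surjective π hπ
  let D := (φ.comp (inclusion a1)).ker
  have b1 : D.index ≤ 4 := by
    obtain ⟨n, hn⟩ := a2.index D
    have : D.index ∣ Nat.card W := by rw [index_ker]; exact card_subgroup_dvd_card _
    rw [hn] at this ⊢
    exact Nat.pow_le_pow_right two_pos (not_lt.1 fun h => hW ((pow_dvd_pow 2 h).trans this) : n ≤ 2)
  let ψ := π.comp (f.subgroupComap Q)
  have b2 : D.map π ≤ ψ.range := by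
    rintro _ ⟨d, hd, rfl⟩
    obtain ⟨c, hc⟩ := hf _ hd
    exact ⟨⟨c, show f c ∈ Q from hc ▸ d.2⟩, congrArg π (Subtype.ext hc)⟩
  have b0 : Nat.card {c : Q.comap f // c ^ 2 = 1} ≤ Nat.card {c : C // c ^ 2 = 1} :=
    Nat.card_le_card_of_injective (fun c => ⟨c.1, congrArg Subtype.val c.2⟩) fun _ _ e => by
      have := Subtype.ext_iff.1 e
      exact Subtype.ext (Subtype.ext this)
  have b3 := (card_range_le ψ h).trans (Nat.mul_le_mul_left 2 (b0.trans hC))
  have b4 := Nat.mul_le_mul ((card_le_of_le b2).trans b3)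
    ((Nat.le_of_dvd (Nat.pos_of_ne_zero index_ne_zero_of_finite) (index_map_dvd D hπ)).trans b1)
  rw [card_mul_index] at b4
  omega

/-- affine maps of `𝔽₂³` -/
def fn8 (i x : ℕ) : ℕ := x ^^^ (i % 8) ^^^ ((x / 2 % 2) * (i / 8 % 2)) ^^^ ((x / 4) * (i / 16))

/-- multiplication of affine maps -/
def mu8 (i j : ℕ) : ℕ := fn8 i (fn8 j 0) + 8 * ((fn8 i (fn8 j 2) ^^^ fn8 i (fn8 j 0)) % 2) +
  16 * ((fn8 i (fn8 j 4) ^^^ fn8 i (fn8 j 0)) % 4)

open Equiv in
/-- generators -/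
def ge8 : List (Perm (Fin 8)) := [swap 0 1 * swap 2 3 * (swap 4 5 * swap 6 7), swap 0 2 * swap 1 3 * (swap 4 6 * swap 5 7),
  swap 0 4 * swap 1 5 * (swap 2 6 * swap 3 7), swap 2 3 * swap 6 7, swap 4 5 * swap 6 7, swap 4 6 * swap 5 7]

/-- the elements of a Sylow `2`-subgroup of `A₈` -/
def el8 (i : ℕ) : Equiv.Perm (Fin 8) := ([0, 1, 2, 5, 4, 3].map fun k => ge8.getD k 1 ^ (i / 2 ^ k % 2)).prod

theorem el8_val : ∀ i < 64, ∀ x : Fin 8, (el8 i x : ℕ) = fn8 i x := by decide +kernel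

theorem el8_mem (i : ℕ) : el8 i ∈ alternatingGroup (Fin 8) := list_prod_mem (by
  simp only [List.mem_map]
  rintro _ ⟨k, hk, rfl⟩
  refine pow_mem ?_ _
  fin_cases hk <;> simp [ge8, Equiv.Perm.mem_alternatingGroup])

theorem mu8_spec : ∀ i < 64, ∀ j < 64, mu8 i j < 64 ∧ (∀ x < 8, fn8 i (fn8 j x) = fn8 (mu8 i j) x) ∧
    ((∀ x < 8, fn8 i x = fn8 j x) → i = j) ∧ mu8 (mu8 i i) (mu8 i i) = 0 ∧
    (mu8 i j = mu8 j i → mu8 i i = 0 ∨ mu8 j j = 0 ∨ mu8 i i = mu8 j j) := by decide +kernel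

theorem el8_mul {i j : ℕ} (hi : i < 64) (hj : j < 64) : el8 i * el8 j = el8 (mu8 i j) := by
  ext x
  rw [Equiv.Perm.mul_apply, el8_val i hi, el8_val j hj, el8_val _ (mu8_spec i hi j hj).1, (mu8_spec i hi j hj).2.1 x x.2]

theorem el8_inj {i j : ℕ} (hi : i < 64) (hj : j < 64) (e : el8 i = el8 j) : i = j :=
  (mu8_spec i hi j hj).2.2.1 fun x hx => by rw [← el8_val i hi ⟨x, hx⟩, e, el8_val j hj]

theorem el8_zero : el8 0 = 1 := by simp [el8]

theorem el8_four {i : ℕ} (hi : i < 64) : el8 i ^ 4 = 1 := by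
  have := mu8_spec i hi i hi
  rw [show 4 = 2 * 2 from rfl, pow_mul, sq, sq, el8_mul hi hi, el8_mul this.1 this.1, this.2.2.2.1, el8_zero]

/-- a Sylow `2`-subgroup of `A₈` -/
def S8 : Subgroup (Equiv.Perm (Fin 8)) where
  carrier := {g | ∃ i < 64, el8 i = g}
  one_mem' := ⟨0, by decide, el8_zero⟩
  mul_mem' := by
    rintro _ _ ⟨i, hi, rfl⟩ ⟨j, hj, rfl⟩
    exact ⟨_, (mu8_spec i hi j hj).1, (el8_mul hi hj).symm⟩
  inv_mem' := by
    rintro _ ⟨i, hi, rfl⟩
    have := (mu8_spec i hi i hi).1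
    refine ⟨_, (mu8_spec i hi _ this).1, eq_inv_of_mul_eq_one_left ?_⟩
    rw [← el8_mul hi this, ← el8_mul hi hi, ← el8_four hi]
    simp [pow_succ, mul_assoc]

theorem not_sec_A8 {N : Subgroup G} (hN : ¬ 2 ∣ N.index) {W : Type*} [Group W] (φ : N →* W) (hW : ¬ 8 ∣ Nat.card W)
    {C : Type*} [CommGroup C] [Finite C] (f : C →* G) (hf : ∀ n, φ n = 1 → (n : G) ∈ f.range)
    (hC : Nat.card {c : C // c ^ 2 = 1} ≤ 4) : ¬ Sec G (alternatingGroup (Fin 8)) := fun h =>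
  not_sec_two (S := S8) (by rintro ⟨_, i, hi, rfl⟩; exact ⟨2, Subtype.ext (el8_four hi)⟩)
    (by simpa [Nat.succ_le_iff] using Nat.card_le_card_of_injective (fun i : Fin 33 => (⟨_, i, by omega, rfl⟩ : S8)) fun i j e =>
      Fin.ext (el8_inj (by omega) (by omega) (congrArg Subtype.val e)))
    (by
      rintro ⟨_, i, hi, rfl⟩ ⟨_, j, hj, rfl⟩ e
      simp only [Subtype.ext_iff, coe_mul, sq, el8_mul hi hj, el8_mul hj hi, el8_mul hi hi, el8_mul hj hj, coe_one] at e ⊢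
      rcases (mu8_spec i hi j hj).2.2.2.2 (el8_inj (mu8_spec i hi j hj).1 (mu8_spec j hj i hi).1 e) with e | e | e <;>
        simp [e, el8_zero]) hN φ hW f hf hC
    (h.right (inclusion_injective (show S8 ≤ _ by rintro _ ⟨i, -, rfl⟩; exact el8_mem i)))

end

end Cfsg.Agent.H15
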