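import Cfsg.Agent.H15.Alt1
import Cfsg.Agent.H15.TwF4
import Cfsg.Agent.H15.TwD4
import Cfsg.Agent.H14.EO6
import Cfsg.Agent.S1059
import Cfsg.Agent.S1062
import Mathlib.FieldTheory.Finite.Extension

/-! Alternating sections of exceptional groups of small rank. -/

set_option autoImplicit false

namespace Cfsg.Agent.H15

open Subgroup Cfsg.Agent.H14 Cfsg.Lie Cfsg.Lie.ChevalleyDatum

section alt

open Equiv

theorem exists_alt (n : ℕ) (x g : List (Fin n × Fin n)) (hx : Even x.length) (hg : Even g.length)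
    (h : ∀ p ∈ x ++ g, p.1 ≠ p.2) : ∃ a b : alternatingGroup (Fin n),
      a.1 = (x.map fun p => swap p.1 p.2).prod ∧ b.1 = (g.map fun p => swap p.1 p.2).prod := by
  have : ∀ x : List (Fin n × Fin n), Even x.length → (∀ p ∈ x, p.1 ≠ p.2) →
      (x.map fun p => swap p.1 p.2).prod ∈ alternatingGroup (Fin n) := fun x hx h =>
    Perm.prod_list_swap_mem_alternatingGroup_iff_even_length (by
      simp only [List.mem_map]; rintro _ ⟨p, hp, rfl⟩; exact ⟨_, _, h p hp, rfl⟩) |>.2 (by simpa using hx)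
  exact ⟨⟨_, this x hx fun p hp => h p (by simp [hp])⟩, ⟨_, this g hg fun p hp => h p (by simp [hp])⟩, rfl, rfl⟩

theorem exists_alt' (n p k : ℕ) [Fact p.Prime] (x g : List (Fin n × Fin n)) (h : Even x.length ∧ Even g.length ∧
    (∀ p ∈ x ++ g, p.1 ≠ p.2) ∧ let a := (x.map fun p => swap p.1 p.2).prod; let b := (g.map fun p => swap p.1 p.2).prod
      a ^ p = 1 ∧ a ≠ 1 ∧ b * a = a ^ k * b) : ∃ a b : alternatingGroup (Fin n), orderOf a = p ∧ b * a * b⁻¹ = a ^ k := by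
  obtain ⟨a, b, ha, hb⟩ := exists_alt n x g h.1 h.2.1 h.2.2.1
  have := h.2.2.2
  simp only [← ha, ← hb] at this
  exact ⟨a, b, orderOf_eq_prime (Subtype.ext this.1) fun e => this.2.1 (congrArg Subtype.val e),
    mul_inv_eq_iff_eq_mul.2 (Subtype.ext this.2.2)⟩

theorem alt7_7 : ∃ a b : alternatingGroup (Fin 7), orderOf a = 7 ∧ b * a * b⁻¹ = a ^ 2 :=
  haveI : Fact (Nat.Prime 7) := ⟨by norm_num⟩
  exists_alt' 7 7 2 [(0, 1), (1, 2), (2, 3), (3, 4), (4, 5), (5, 6)] [(1, 2), (2, 4), (3, 6), (6, 5)] (by decide +kernel)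

theorem alt7_5 : ∃ a b : alternatingGroup (Fin 7), orderOf a = 5 ∧ b * a * b⁻¹ = a ^ 2 :=
  haveI : Fact (Nat.Prime 5) := ⟨by norm_num⟩
  exists_alt' 7 5 2 [(0, 1), (1, 2), (2, 3), (3, 4)] [(1, 2), (2, 4), (4, 3), (5, 6)] (by decide +kernel)

theorem alt11 : ∃ a b : alternatingGroup (Fin 11), orderOf a = 11 ∧ b * a * b⁻¹ = a ^ 3 :=
  haveI : Fact (Nat.Prime 11) := ⟨by norm_num⟩
  exists_alt' 11 11 3 [(0, 1), (1, 2), (2, 3), (3, 4), (4, 5), (5, 6), (6, 7), (7, 8), (8, 9), (9, 10)]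
    [(1, 3), (3, 9), (9, 5), (5, 4), (2, 6), (6, 7), (7, 10), (10, 8)] (by decide +kernel)

theorem alt12 : ∃ a a' b : alternatingGroup (Fin 12), orderOf a = 5 ∧ orderOf a' = 7 ∧ Commute a a' ∧
    b * a * b⁻¹ = a ^ 17 ∧ b * a' * b⁻¹ = a' ^ 17 := by
  have : Fact (Nat.Prime 5) := ⟨by norm_num⟩
  have : Fact (Nat.Prime 7) := ⟨by norm_num⟩
  obtain ⟨a, a', ha, ha'⟩ := exists_alt 12 [(7, 8), (8, 9), (9, 10), (10, 11)] [(0, 1), (1, 2), (2, 3), (3, 4), (4, 5), (5, 6)]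
    (by decide) (by decide) (by decide +kernel)
  obtain ⟨b, -, hb, -⟩ := exists_alt 12 [(1, 3), (3, 2), (2, 6), (6, 4), (4, 5), (8, 9), (9, 11), (11, 10)] []
    (by decide) (by decide) (by decide +kernel)
  have : a.1 ^ 5 = 1 ∧ a.1 ≠ 1 ∧ a'.1 ^ 7 = 1 ∧ a'.1 ≠ 1 ∧ a.1 * a' = a' * a ∧ b.1 * a = a ^ 17 * b ∧ b.1 * a' = a' ^ 17 * b := by
    rw [ha, ha', hb]; decide +kernel
  obtain ⟨h1, h2, h3, h4, h5, h6, h7⟩ := this
  exact ⟨a, a', b, orderOf_eq_prime (Subtype.ext h1) fun e => h2 (congrArg Subtype.val e),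
    orderOf_eq_prime (Subtype.ext h3) fun e => h4 (congrArg Subtype.val e), Subtype.ext h5,
    mul_inv_eq_iff_eq_mul.2 (Subtype.ext h6), mul_inv_eq_iff_eq_mul.2 (Subtype.ext h7)⟩

end alt

/-- a group with an abelian subgroup whose fusion is controlled by a dihedral group -/
structure DihT (G : Type*) [Group G] (n m : ℕ) where
  /-- the torus -/
  T : Subgroup G
  /-- the monomial subgroup -/
  N : Subgroup G
  /-- the map to the Weyl group -/
  φ : N →* DihedralGroup n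
  surj : Function.Surjective φ
  ker : ∀ x, φ x = 1 ↔ (x : G) ∈ T
  le : T ≤ N
  comm : ∀ a ∈ T, ∀ b ∈ T, a * b = b * a
  fus : ∀ s ∈ T, ∀ y, y * s * y⁻¹ ∈ T → ∃ x ∈ N, x * s * x⁻¹ = y * s * y⁻¹
  index : T.index = m

theorem conj_pow_iterate {G : Type*} [Group G] {x s : G} {k : ℕ} (h : x * s * x⁻¹ = s ^ k) (e : ℕ) :
    x ^ e * s * (x ^ e)⁻¹ = s ^ k ^ e := by
  induction e with
  | zero => simp
  | succ e ih => rw [pow_succ k, pow_mul, ← ih, conj_pow, ← h, pow_succ]; group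

namespace DihT

variable {G : Type*} [Group G] [Finite G] {n m : ℕ}

theorem not_sec (D : DihT G n m) {A : Type*} [Group A] {p k : ℕ} [hp : Fact p.Prime] (h : ∃ x g : A, orderOf x = p ∧ g * x * g⁻¹ = x ^ k)
    (hm : ¬ p ∣ m) (hk : ¬ k ^ Nat.lcm n 2 ≡ 1 [MOD p]) : ¬ Sec G A := fun hs => by
  obtain ⟨x, g, hx, e⟩ := h
  obtain ⟨s, a1, a2, y, a3⟩ := hs.exists_conj D.comm hx e (by rwa [D.index])
  obtain ⟨x, b1, b2⟩ := D.fus s a1 y (a3 ▸ pow_mem a1 k)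
  have b3 : x ^ Nat.lcm n 2 ∈ D.T := (D.ker (⟨x, b1⟩ ^ _)).1 (by
    rw [map_pow, ← lcm_eq_nat_lcm, ← DihedralGroup.exponent, Monoid.pow_exponent_eq_one])
  have := conj_pow_iterate (b2.trans a3) (Nat.lcm n 2)
  rw [D.comm _ b3 _ a1, mul_inv_cancel_right] at this
  exact hk (a2 ▸ pow_eq_pow_iff_modEq.1 (this.symm.trans (pow_one s).symm))

theorem not_A8 (D : DihT G 6 m) (hm : ¬ 8 ∣ m) {C : Type*} [CommGroup C] [Finite C] (f : C →* G) (hf : D.T ≤ f.range)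
    (hC : Nat.card {c : C // c ^ 2 = 1} ≤ 4) : ¬ Sec G (alternatingGroup (Fin 8)) := by
  refine not_sec_A8 (fun h => hm ?_) D.φ (by rw [DihedralGroup.nat_card]; decide) f (fun x hx => hf ((D.ker x).1 hx)) hC
  have : D.T.relIndex D.N = 12 := by
    rw [relIndex, show D.T.subgroupOf D.N = D.φ.ker from Subgroup.ext fun x => (D.ker x).symm, index_ker,
      MonoidHom.range_eq_top.2 D.surj, card_top, DihedralGroup.nat_card]
  rw [← D.index, ← relIndex_mul_index D.le, this]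
  exact mul_dvd_mul (by decide : 4 ∣ 12) h

end DihT

theorem BN.exists_dih {G : Type*} [Group G] (P : BNPair G) (e : Fin 2 ≃ P.S) {n : ℕ} (hn : 0 < n)
    (h : orderOf (BN.sW P (e 0) * BN.sW P (e 1)) = n) :
    ∃ φ : P.N →* DihedralGroup n, Function.Surjective φ ∧ ∀ x, φ x = 1 ↔ (x : G) ∈ P.B := by
  let E := (BN.ex P).reindex e
  have h2 : ∀ i, orderOf (E.s i) = 2 := fun i => H11.orderOf_two_of (fun e => E.not_pos i 1 (E.pos_one i) (by
    rw [e, one_mul]; exact E.pos_one i)) (E.sq i)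
  obtain ⟨e⟩ := H11.nonempty_closure_equiv_dihedral hn h
    (H11.invol_inverts_left (E.sq 0) (E.sq 1)) (E.sq 0) (H11.not_mem_zpowers_mul (h2 0) (h2 1))
  have h3 : Subgroup.closure {E.s 0, E.s 1} = ⊤ := by
    rw [← E.gen]; congr 1; ext a; simp [Fin.exists_fin_two, eq_comm]
  rw [H11.closure_pair_eq (E.sq 0)] at h3
  let e' := (Subgroup.topEquiv.symm.trans (MulEquiv.subgroupCongr h3.symm)).trans e
  refine ⟨e'.toMonoidHom.comp (QuotientGroup.mk' _), e'.surjective.comp QuotientGroup.mk_surjective, fun x => ?_⟩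
  rw [MonoidHom.comp_apply, MulEquiv.coe_toMonoidHom, map_eq_one_iff _ e'.injective]
  exact BN.mk_eq_one_iff _

section

variable {ι Φ : Type} [Fintype ι] [DecidableEq ι] {R : RS ι Φ} {K : Type*} [Field K] {G : Type*} [Group G] {X : RG R K G}

theorem conj_H_nf {h₁ h₂ u n v : G} {w : Equiv.Perm Φ} (a1 : h₁ ∈ X.H) (a2 : h₂ ∈ X.H) (hu : u ∈ X.U) (hn : n ∈ X.N)
    (hw : X.Rep n w) (hv : v ∈ X.Uw w) (hc : u * n * v * h₁ * (u * n * v)⁻¹ = h₂) : n * h₁ * n⁻¹ = h₂ := by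
  have b1 := X.conj_mem_H hn a1
  have := (X.normal_form_unique (b := u * (n * h₁ * n⁻¹)) (b' := h₂ * u * h₂⁻¹ * h₂)
    (mul_mem (X.U_le_B hu) (X.H_le_B b1)) (mul_mem (X.U_le_B (X.H_conj_mem_gen a2 hu)) (X.H_le_B a2)) hw
    (X.H_conj_mem_gen (inv_mem a1) hv) hv (by rw [← hc]; group)).1
  have h3 := X.eq_one_of_mem_U_H (g := (h₂ * u * h₂⁻¹)⁻¹ * u) (mul_mem (inv_mem (X.H_conj_mem_gen a2 hu)) hu)
    (by rw [show (h₂ * u * h₂⁻¹)⁻¹ * u = h₂ * (n * h₁ * n⁻¹)⁻¹ by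
          rw [inv_mul_eq_iff_eq_mul, ← mul_assoc, ← this]; group]
        exact mul_mem a2 (inv_mem b1))
  rw [inv_mul_eq_one] at h3
  rw [h3] at this
  exact mul_left_cancel this

theorem index_of_card {T : Subgroup G} [Finite G] {a m : ℕ} (h1 : Nat.card T = a) (h2 : Nat.card G = a * m) : T.index = m :=
  Nat.eq_of_mul_eq_mul_left (h1 ▸ Nat.card_pos) (by rw [← h2, ← h1, card_mul_index])

theorem TwO.exists_dihT [Finite Φ] [Finite G] (S : TwO X (Fin 2)) (hm : X.HMul) {n a m : ℕ} (hn : 0 < n)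
    (h : orderOf (S.wJ 0 * S.wJ 1) = n) (h1 : Nat.card ↥(X.H ⊓ S.T) = a) (h2 : Nat.card S.T = a * m) :
    ∃ D : DihT S.T n m, D.T = X.H.subgroupOf S.T := by
  obtain ⟨φ, a1, a2⟩ := BN.exists_dih S.bn S.sEquiv hn ((S.orderOf_sW 0 1).trans h)
  refine ⟨⟨X.H.subgroupOf S.T, _, φ, a1, fun x => (a2 x).trans ⟨fun h => X.mem_H_of_mem_B_N h x.2, fun h => X.H_le_B h⟩, fun x h => X.H_le_N h,
    fun a ha b hb => Subtype.ext (X.commute_H hm ha hb), fun s hs y hy => ?_, index_of_card ?_ h2⟩, rfl⟩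
  · obtain ⟨u, hu, -, x, hx, hx', w, hw, v, hv, -, e⟩ := S.exists_normal_form_T y.2
    exact ⟨⟨x, hx'⟩, hx, Subtype.ext (conj_H_nf hs hy hu hx hw hv (by rw [← e]; rfl))⟩
  · rw [← h1, ← inf_subgroupOf_right]; exact Nat.card_congr (subgroupOfEquivOfLe inf_le_right).toEquiv

end

theorem exists_ext (F : Type*) [Field F] [Fintype F] (p : ℕ) [Fact p.Prime] [CharP F p] (n : ℕ) [NeZero n] :
    ∃ (K : Type) (_ : Field K) (_ : Fintype K) (_ : F →+* K), Fintype.card K = Fintype.card F ^ n := by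
  have := Fintype.ofFinite (FiniteField.Extension F p n)
  exact ⟨FiniteField.Extension F p n, inferInstance, this, algebraMap _ _, by
    simpa [Nat.card_eq_fintype_card] using FiniteField.natCard_extension F p n⟩

theorem card_sq_le {F : Type*} [Field F] {C : Type*} [CommGroup C] (f : C →* Fˣ × Fˣ) (hf : Function.Injective f) :
    Nat.card {c : C // c ^ 2 = 1} ≤ 4 := by
  classical
  have h : ∀ a : Fˣ, a ^ 2 = 1 → a = if a = 1 then 1 else -1 := fun a ha => by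
    split_ifs with h
    exacts [h, Units.ext ((sq_eq_one_iff.1 (show (a : F) ^ 2 = 1 from congrArg Units.val ha)).resolve_left
      fun e => h (Units.ext e))]
  simpa using Nat.card_le_card_of_injective (β := Bool × Bool) (fun c : {c : C // c ^ 2 = 1} =>
    (decide ((f c).1 = 1), decide ((f c).2 = 1))) fun a b e => Subtype.ext (hf (by
      have ha := congrArg f a.2
      have hb := congrArg f b.2
      rw [map_pow, map_one, Prod.ext_iff] at ha hb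
      simp only [Prod.mk.injEq, decide_eq_decide] at e
      rw [Prod.ext_iff, h _ ha.1, h _ ha.2, h _ hb.1, h _ hb.2]
      simp [e]))

theorem card_H_rgD {D : ChevalleyDatum} (G : Good D) (hc : HasCenter G.R.car 0 1) (F : Type*) [Field F] [Fintype F] :
    Nat.card (G.rgD F).H = (Fintype.card F - 1) ^ D.rank := by
  rw [← (G.rgD F).torX_range (G.rgD_hmul F),
    ← Nat.card_congr (MonoidHom.ofInjective (G.torX_rgD_injective hc (.inl rfl))).toEquiv]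
  rw [Nat.card_fun, Nat.card_units, Nat.card_eq_fintype_card, Nat.card_fin]

theorem exists_dihT_G2 (F : Type*) [Field F] [Fintype F] {q : ℕ} (hq : Fintype.card F = q) :
    ∃ D : DihT (chevG2.group F) 6 (q ^ 6 * (q + 1) * (q ^ 5 + q ^ 4 + q ^ 3 + q ^ 2 + q + 1)), D.T = (goodG2.rgD F).H := by
  let X := goodG2.rgD F
  obtain ⟨φ, a1, a2⟩ := BN.exists_dih (X.bn (goodG2.rgD_top F)) ((Equiv.refl (Fin 2)).trans (X.sEquiv (goodG2.rgD_top F)))
    (by decide : 0 < 6) (X.orderOf_sW_eq _ (Equiv.refl (Fin 2)) _ (coxG2 goodG2) 0 1)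
  refine ⟨⟨X.H, _, φ, a1, fun x => (a2 x).trans ⟨fun h => X.mem_H_of_mem_B_N h x.2, fun h => X.H_le_B h⟩, X.H_le_N,
    fun a ha b hb => X.commute_H (goodG2.rgD_hmul F) ha hb,
    fun s hs y hy => X.conj_H_of_conj hs hy ((goodG2.rgD_top F).ge trivial) rfl,
    index_of_card (card_H_rgD _ (centerG2 _) F) ?_⟩, rfl⟩
  rw [S1059.result hq, hq]
  obtain ⟨a, rfl⟩ : ∃ a, q = a + 1 := ⟨q - 1, by have := Fintype.card_pos (α := F); omega⟩
  rw [Nat.sub_eq_of_eq_add (by ring : (a + 1) ^ 2 = a * (a + 2) + 1), Nat.sub_eq_of_eq_add (by ring : (a + 1) ^ 6 =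
    a * ((a + 1) ^ 5 + (a + 1) ^ 4 + (a + 1) ^ 3 + (a + 1) ^ 2 + (a + 1) + 1) + 1), Nat.add_sub_cancel, show chevG2.rank = 2 from rfl]
  ring

theorem pow_card_modEq (F : Type*) [Field F] [Fintype F] (p : ℕ) [hp : Fact p.Prime] [CharP F p] {l : ℕ} (hl : l.Prime)
    (h : p ≠ l) : Fintype.card F ^ (l - 1) % l = 1 := by
  obtain ⟨n, -, hn⟩ := FiniteField.card F p
  have := Nat.ModEq.pow_totient (x := Fintype.card F) (n := l) (hn ▸ ((Nat.coprime_primes hp.out hl).2 h).pow_left _)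
  rwa [Nat.totient_prime hl, Nat.ModEq, Nat.mod_eq_of_lt hl.one_lt] at this

theorem g2_not_A7 (F : Type*) [Field F] [Fintype F] (p : ℕ) [Fact p.Prime] [CharP F p] (h : p ≠ 5) :
    ¬ Sec (chevG2.group F) (alternatingGroup (Fin 7)) := fun hs => by
  have : Fact (Nat.Prime 5) := ⟨by norm_num⟩
  obtain ⟨K, _, _, σ, hK⟩ := exists_ext F p 4
  obtain ⟨ψ, hψ, -⟩ := goodG2.exists_adMap σ
  obtain ⟨D, -⟩ := exists_dihT_G2 K hK
  have := pow_card_modEq F p this.out h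
  refine D.not_sec alt7_5 ?_ (by decide) (hs.left hψ)
  generalize Fintype.card F ^ 4 = q at this
  simp [Nat.dvd_iff_mod_eq_zero, Nat.mul_mod, Nat.add_mod, Nat.pow_mod, this]

theorem card_mod_eight (F : Type*) [Field F] [Fintype F] [CharP F 5] : Fintype.card F % 8 = 1 ∨ Fintype.card F % 8 = 5 := by
  obtain ⟨n, -, hn⟩ := FiniteField.card F 5
  rw [hn]
  induction (n : ℕ) with
  | zero => simp
  | succ n ih => omega

theorem g2_not_A8 (F : Type*) [Field F] [Fintype F] [CharP F 5] : ¬ Sec (chevG2.group F) (alternatingGroup (Fin 8)) := by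
  obtain ⟨D, hD⟩ := exists_dihT_G2 F rfl
  refine D.not_A8 ?_ ((goodG2.rgD F).torX (goodG2.rgD_hmul F)) (hD.trans (RG.torX_range _ _).symm).le
    (card_sq_le (C := Fin 2 → Fˣ) ((Pi.evalMonoidHom _ 0).prod (Pi.evalMonoidHom _ 1)) fun a b e => funext
      (Fin.forall_fin_two.2 ⟨congrArg Prod.fst e, congrArg Prod.snd e⟩))
  rcases card_mod_eight F with h | h <;> simp [Nat.dvd_iff_mod_eq_zero, Nat.mul_mod, Nat.add_mod, Nat.pow_mod, h]

theorem f4_not {F : Type*} [Field F] [Fintype F] {s y : chevF4.group F} (hs : s ∈ (goodF4.rgD F).H) {k n : ℕ}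
    (e : y * s * y⁻¹ = s ^ k) (hn : orderOf s = n) : (∃ r ∈ [0, 1, -1], (n : ℤ) ∣ evM 4 [-1, -r, 0, r] k) ∨
      ∃ r ∈ [0, -1], (n : ℤ) ∣ evM 4 [1, 0, r, 0] k := by
  let X := goodF4.rgD F
  have hm := goodF4.rgD_hmul F
  have hi := goodF4.torX_rgD_injective (F := F) (centerF4 _) (.inl rfl)
  obtain ⟨x, a1, a2⟩ := X.conj_H_of_conj hs (pow_mem hs k) ((goodF4.rgD_top F).ge trivial) e
  obtain ⟨w, hw⟩ := X.exists_rep a1
  obtain ⟨c, rfl⟩ := X.exists_torX hm hs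
  rw [X.conj_torX hm a1 hw, ← map_pow] at a2
  rw [orderOf_injective _ hi] at hn
  simp only [← hn, orderOf_dvd_iff_zpow_eq_one]
  exact (f4_pow (bridgeF4.cov_eq' goodF4) (bridgeF4.pr_eq goodF4) (car_eqF4 _) hw.mem_W (hi a2)).imp_right And.right

theorem f4_index (F : Type*) [Field F] [Fintype F] {l : ℕ} (h : Fintype.card F % l = 1) (hl : ¬ l ∣ 1152) :
    ¬ l ∣ (goodF4.rgD F).H.index := by
  obtain ⟨a, ha⟩ : ∃ a, Fintype.card F = a + 1 := ⟨_, (Nat.sub_add_cancel Fintype.card_pos).symm⟩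
  have h1 : ∀ n, (a + 1) ^ n - 1 = a * ∑ i ∈ Finset.range n, (a + 1) ^ i := fun n =>
    Nat.sub_eq_of_eq_add (by rw [mul_comm, geom_sum_mul_add])
  have h2 : ∀ n, ∑ i ∈ Finset.range n, (a + 1) ^ i ≡ n [MOD l] := fun n => by
    simp [Nat.ModEq, Finset.sum_nat_mod, Nat.pow_mod, ← ha, h]
  rw [index_of_card (m := (a + 1) ^ 24 * (∑ i ∈ Finset.range 2, (a + 1) ^ i) * (∑ i ∈ Finset.range 6, (a + 1) ^ i) *
    (∑ i ∈ Finset.range 8, (a + 1) ^ i) * ∑ i ∈ Finset.range 12, (a + 1) ^ i) (card_H_rgD _ (centerF4 _) F) (by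
      rw [S1062.result ha, ha, h1, h1, h1, h1, Nat.add_sub_cancel, show chevF4.rank = 4 from rfl]; ring)]
  have h3 : (a + 1) ^ 24 ≡ 1 [MOD l] := by simp [Nat.ModEq, Nat.pow_mod, ← ha, h]
  exact fun e => hl (((((h3.mul (h2 2)).mul (h2 6)).mul (h2 8)).mul (h2 12)).dvd_iff dvd_rfl |>.1 e)

theorem f4_not_A11 (F : Type*) [Field F] [Fintype F] (p : ℕ) [Fact p.Prime] [CharP F p] (h : p ≠ 11) :
    ¬ Sec (chevF4.group F) (alternatingGroup (Fin 11)) := fun hs => by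
  have : Fact (Nat.Prime 11) := ⟨by norm_num⟩
  obtain ⟨K, _, _, σ, hK⟩ := exists_ext F p 10
  obtain ⟨ψ, hψ, -⟩ := goodF4.exists_adMap σ
  obtain ⟨x, g, hx, e⟩ := alt11
  obtain ⟨s, a1, a2, y, a3⟩ := (hs.left hψ).exists_conj
    (fun a ha b hb => (goodF4.rgD K).commute_H (goodF4.rgD_hmul K) ha hb) hx e
    (f4_index K (hK ▸ pow_card_modEq F p this.out h) (by decide))
  exact absurd (f4_not a1 a3 a2) (by decide)

theorem f4_not_A12 (F : Type*) [Field F] [Fintype F] [CharP F 11] :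
    ¬ Sec (chevF4.group F) (alternatingGroup (Fin 12)) := fun hs => by
  have h5 : Fact (Nat.Prime 5) := ⟨by norm_num⟩
  have h7 : Fact (Nat.Prime 7) := ⟨by norm_num⟩
  have : Fact (Nat.Prime 11) := ⟨by norm_num⟩
  obtain ⟨K, _, _, σ, hK⟩ := exists_ext F 11 12
  obtain ⟨ψ, hψ, -⟩ := goodF4.exists_adMap σ
  obtain ⟨x, x', g, hx, hx', hc, e, e'⟩ := alt12
  have b1 := pow_card_modEq F 11 h5.out (by decide)
  have b2 := pow_card_modEq F 11 h7.out (by decide)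
  obtain ⟨s, a1, a2, y, a3⟩ := (hs.left hψ).exists_conj₂
    (fun a ha b hb => (goodF4.rgD K).commute_H (goodF4.rgD_hmul K) ha hb) (by decide) hx hx' hc e e'
    (f4_index K (by rw [hK, show 12 = (5 - 1) * 3 from rfl, pow_mul, Nat.pow_mod, b1]) (by decide))
    (f4_index K (by rw [hK, show 12 = (7 - 1) * 2 from rfl, pow_mul, Nat.pow_mod, b2]) (by decide))
  exact absurd (f4_not a1 a3 a2) (by decide)

theorem ree4_not_A7 {K : Type*} [Field K] [Fintype K] {m : ℕ} (hK : Fintype.card K = 2 ^ (2 * m + 1)) :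
    ¬ Sec (twistedF4 K (2 ^ m)) (alternatingGroup (Fin 7)) := by
  have : Fact (Nat.Prime 7) := ⟨by norm_num⟩
  obtain ⟨_, S, θ, h, h1, h2⟩ := exists_F4 hK
  obtain ⟨a, ha⟩ : ∃ a, Nat.card K = a + 1 := ⟨_, (Nat.sub_add_cancel Nat.card_pos).symm⟩
  obtain ⟨D, -⟩ := S.exists_dihT goodF4.hmul_rg (by decide : 0 < 8) (h.order 0 1) h.card_H
    (m := (a + 1) ^ 12 * ((a + 1) ^ 3 + 1) * ((a + 1) ^ 3 + (a + 1) ^ 2 + (a + 1) + 1) * ((a + 1) ^ 6 + 1)) (by
      rw [h.card, ha, Nat.sub_eq_of_eq_add (by ring : (a + 1) ^ 4 = a * ((a + 1) ^ 3 + (a + 1) ^ 2 + (a + 1) + 1) + 1),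
        Nat.add_sub_cancel]; ring)
  rw [← h1]
  refine D.not_sec alt7_7 ?_ (by decide)
  have : (a + 1) % 7 = 1 ∨ (a + 1) % 7 = 2 ∨ (a + 1) % 7 = 4 := by
    rw [← ha, h2]
    induction 2 * m + 1 with
    | zero => simp
    | succ n ih => omega
  generalize a + 1 = q at this
  rcases this with h | h | h <;> simp [Nat.dvd_iff_mod_eq_zero, Nat.mul_mod, Nat.add_mod, Nat.pow_mod, h]

theorem IsD4.exists_dihT {K : Type*} [Field K] [Fintype K] {q : ℕ} {S : TwO (X4 K) (Fin 2)} (h : IsD4 S q) :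
    ∃ D : DihT S.T 6 (q ^ 12 * (q + 1) * (q ^ 3 + 1) * (q ^ 8 + q ^ 4 + 1)), D.T = (X4 K).H.subgroupOf S.T := by
  refine S.exists_dihT goodD4.hmul_rg (by decide) (h.order 0 1) h.card_H ?_
  rw [h.card]
  obtain ⟨a, rfl⟩ : ∃ a, q = a + 1 := ⟨q - 1, by have := h.hq; omega⟩
  rw [Nat.sub_eq_of_eq_add (by ring : (a + 1) ^ 2 = a * (a + 2) + 1), Nat.sub_eq_of_eq_add (by ring : (a + 1) ^ 6 =
    a * ((a + 1) ^ 5 + (a + 1) ^ 4 + (a + 1) ^ 3 + (a + 1) ^ 2 + (a + 1) + 1) + 1), Nat.add_sub_cancel]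
  ring

theorem d4_emb {K L : Type*} [Field K] [Fintype K] [Field L] (σ : K →+* L) {q : ℕ} (hK : Fintype.card K = q ^ 3) :
    ∃ ψ : twistedD4 K q →* twistedD4 L (q ^ 4), Function.Injective ψ := by
  let f := Units.map (σ.mapMatrix (m := chevD4.Idx)).toMonoidHom
  have h1 : ∀ t : K, t ^ q ^ 4 = t ^ q := fun t => by rw [pow_succ, pow_mul, ← hK, FiniteField.pow_card]
  have h2 : ∀ t : K, t ^ (q ^ 4) ^ 2 = t ^ q ^ 2 := fun t => by rw [sq, pow_mul, h1, h1, ← pow_mul, sq]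
  have h4 : ∀ r t, f (xN (goodD4.rg K).toRG0 r t) = xN (goodD4.rg L).toRG0 r (σ t) := fun r t => by
    unfold xN
    split_ifs
    exacts [Units.ext (map_xR σ r t), map_one f]
  have h3 : twistedD4 K q ≤ (twistedD4 L (q ^ 4)).comap f := by
    rw [twistedD4, twistedD4, genSubgroup_eq goodD4, genSubgroup_eq goodD4, closure_le]
    rintro _ ⟨w, hw, rfl⟩
    refine subset_closure ⟨w.map fun p => (p.1, σ p.2), ?_, by simp [wordX, map_list_prod, Function.comp_def, h4]⟩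
    rcases hw with ⟨t, ht, r, hr, rfl⟩ | ⟨t, r, hr, rfl⟩
    · exact .inl ⟨σ t, by rw [← map_pow, h1, ht], r, hr, rfl⟩
    · exact .inr ⟨σ t, r, hr, by simp only [← map_pow, h1, h2]; rfl⟩
  exact ⟨(f.comp (Subgroup.subtype _)).codRestrict _ fun g => h3 g.2, fun a b h => Subtype.ext (Units.ext
    (Matrix.map_injective σ.injective (congrArg (fun g : twistedD4 L (q ^ 4) => (g.1 : Matrix chevD4.Idx chevD4.Idx L)) h)))⟩

theorem d4_not_A7 {K : Type*} [Field K] [Fintype K] (p : ℕ) [Fact p.Prime] [CharP K p] {q : ℕ} (hq : IsPrimePow q)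
    (hK : Fintype.card K = q ^ 3) (h : p ≠ 5) : ¬ Sec (twistedD4 K q) (alternatingGroup (Fin 7)) := fun hs => by
  have : Fact (Nat.Prime 5) := ⟨by norm_num⟩
  obtain ⟨L, _, _, σ, hL⟩ := exists_ext K p 4
  obtain ⟨ψ, hψ⟩ := d4_emb σ hK
  obtain ⟨S, hS⟩ := exists_D4 (K := L) (hq.pow four_ne_zero) (by rw [hL, hK]; ring)
  obtain ⟨D, -⟩ := hS.exists_dihT
  have := pow_card_modEq K p this.out h
  have h1 : q ^ 4 % 5 = 1 := by
    rw [hK, ← pow_mul, Nat.pow_mod] at this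
    rw [Nat.pow_mod]
    have := Nat.mod_lt q (by decide : 0 < 5)
    generalize q % 5 = r at *
    interval_cases r <;> simp_all
  refine D.not_sec alt7_5 ?_ (by decide) (hS.T_eq ▸ hs.left hψ)
  generalize q ^ 4 = q at h1
  simp [Nat.dvd_iff_mod_eq_zero, Nat.mul_mod, Nat.add_mod, Nat.pow_mod, h1]

theorem d4_not_A8 {K : Type*} [Field K] [Fintype K] [CharP K 5] {q : ℕ} (hq : IsPrimePow q)
    (hK : Fintype.card K = q ^ 3) : ¬ Sec (twistedD4 K q) (alternatingGroup (Fin 8)) := by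
  obtain ⟨S, hS⟩ := exists_D4 hq hK
  obtain ⟨D, hD⟩ := hS.exists_dihT
  have a1 : ∀ c : S.CFix, tor4 K c ∈ S.T := fun c => (hS.H_eq.ge ⟨c, c.2, rfl⟩).2
  rw [← hS.T_eq]
  refine D.not_A8 ?_ (((tor4 K).comp S.CFix.subtype).codRestrict _ a1) (fun x hx => ?_)
    (card_sq_le (((Pi.evalMonoidHom _ 0).prod (Pi.evalMonoidHom _ 1)).comp S.CFix.subtype) fun a b e => ?_)
  · have := card_mod_eight K
    have h1 : q % 8 = 1 ∨ q % 8 = 5 := by
      rw [hK, Nat.pow_mod] at this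
      have := Nat.mod_lt q (by decide : 0 < 8)
      generalize q % 8 = r at *
      interval_cases r <;> simp_all
    rcases h1 with h | h <;> simp [Nat.dvd_iff_mod_eq_zero, Nat.mul_mod, Nat.add_mod, Nat.pow_mod, h]
  · obtain ⟨c, hc, e⟩ := hS.H_eq.le ⟨(hD.le hx :), x.2⟩
    exact ⟨⟨c, hc⟩, Subtype.ext e⟩
  · have ha := hS.mem_CFix.1 a.2
    have hb := hS.mem_CFix.1 b.2
    have e0 : a.1 0 = b.1 0 := congrArg Prod.fst e
    have e2 : a.1 2 = b.1 2 := (ha 0).trans (e0 ▸ (hb 0).symm)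
    refine Subtype.ext (funext fun i => ?_)
    fin_cases i
    exacts [e0, congrArg Prod.snd e, e2, (ha 2).trans (e2 ▸ (hb 2).symm)]

end Cfsg.Agent.H15
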