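import Mathlib.GroupTheory.Abelianization.Defs
import Mathlib.GroupTheory.Commutator.Basic
import Mathlib.SetTheory.Cardinal.Finite
import Mathlib.Data.List.Sublists
import Mathlib.Tactic.Group

/-! Fixed points of a family of endomorphisms, additive modulo the derived group, in the lower central series. -/

set_option autoImplicit false

namespace Cfsg.Agent.H15.Wt

open scoped commutatorElement

universe u v w

variable {V : Type u} [AddCommGroup V] {M : Type v} [CommGroup M] {Γ : Type w} [Group Γ]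

/-- all `d`-fold differences vanish -/
def Dg : ℕ → (V → M) → Prop
  | 0, f => ∀ x, f x = 1
  | d + 1, f => ∀ a, Dg d fun x => f (x + a) / f x

theorem Dg.mul {d : ℕ} {f g : V → M} (hf : Dg d f) (hg : Dg d g) : Dg d fun x => f x * g x := by
  induction d generalizing f g with
  | zero => exact fun x => by simp [hf x, hg x]
  | succ d ih => exact fun a => by simpa only [mul_div_mul_comm] using ih (hf a) (hg a)

theorem Dg.inv {d : ℕ} {f : V → M} (hf : Dg d f) : Dg d fun x => (f x)⁻¹ := by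
  induction d generalizing f with
  | zero => exact fun x => by simp [hf x]
  | succ d ih => exact fun a => by simpa only [inv_div, inv_div_inv] using ih (hf a)

theorem dg_one (d : ℕ) : Dg d fun _ : V => (1 : M) := by
  induction d with
  | zero => exact fun _ => rfl
  | succ d ih => exact fun a => by simpa using ih

theorem Dg.shift {d : ℕ} {f : V → M} (hf : Dg d f) (c : V) : Dg d fun x => f (x + c) := by
  induction d generalizing f with
  | zero => exact fun x => hf _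
  | succ d ih => exact fun a => by simpa only [add_right_comm _ a c] using ih (hf a)

theorem Dg.eq_one {l : List V} {f : V → M} (hf : Dg l.length f) (h : ∀ s, s.Sublist l → s ≠ [] → f s.sum = 1) :
    f 0 = 1 := by
  induction l generalizing f with
  | nil => exact hf 0
  | cons a l ih =>
    have h1 := ih (hf a) fun s hs h0 => by
      have := h (a :: s) (hs.cons_cons a) (by simp)
      rw [List.sum_cons, add_comm] at this
      rw [this, h s (hs.cons a) h0, div_one]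
    have h2 := h [a] (by simp) (by simp)
    simp only [List.sum_singleton] at h2
    simpa [h2] using h1

theorem exists_list [Finite V] {d : ℕ} (h : 2 ^ d < 2 * Nat.card V) :
    ∃ l : List V, l.length = d ∧ ∀ s, s.Sublist l → s ≠ [] → s.sum ≠ 0 := by
  classical
  induction d with
  | zero => exact ⟨[], rfl, fun s hs h0 => absurd (List.sublist_nil.1 hs) h0⟩
  | succ d ih =>
    obtain ⟨l, rfl, hl⟩ := ih (by rw [pow_succ] at h; omega)
    have := Fintype.ofFinite V
    obtain ⟨a, -, ha⟩ := Finset.exists_mem_notMem_of_card_lt_card (s := (l.sublists.map fun s => -s.sum).toFinset)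
      (t := Finset.univ) ((List.toFinset_card_le _).trans_lt (by
        rw [List.length_map, List.length_sublists, Finset.card_univ, ← Nat.card_eq_fintype_card]; rw [pow_succ] at h; omega))
    refine ⟨a :: l, rfl, fun s hs h0 => ?_⟩
    rcases List.sublist_cons_iff.1 hs with e | ⟨r, rfl, e⟩
    · exact hl s e h0
    · exact fun e' => ha (by
        simp only [List.mem_toFinset, List.mem_map, List.mem_sublists]
        exact ⟨r, e, by rw [List.sum_cons] at e'; exact (eq_neg_of_add_eq_zero_left e').symm⟩)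

/-- `χ` is multiplicative on `L` and invariant under conjugation by `P` -/
structure Ch (P L : Subgroup Γ) (χ : Γ → M) : Prop where
  mul : ∀ a ∈ L, ∀ b ∈ L, χ (a * b) = χ a * χ b
  conj : ∀ p ∈ P, ∀ a ∈ L, χ (p * a * p⁻¹) = χ a

variable {P L : Subgroup Γ} {χ : Γ → M}

theorem Ch.one (h : Ch P L χ) : χ 1 = 1 := by simpa using h.mul 1 L.one_mem 1 L.one_mem

theorem Ch.inv (h : Ch P L χ) {a : Γ} (ha : a ∈ L) : χ a⁻¹ = (χ a)⁻¹ :=
  eq_inv_of_mul_eq_one_left (by rw [← h.mul _ (inv_mem ha) _ ha, inv_mul_cancel, h.one])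

theorem ch_self (h : ∀ a ∈ P, ∀ b ∈ P, χ (a * b) = χ a * χ b) : Ch P P χ := ⟨h, fun p hp a ha => by
  have h1 : χ 1 = 1 := by simpa using h 1 P.one_mem 1 P.one_mem
  rw [h _ (mul_mem hp ha) _ (inv_mem hp), h _ hp _ ha, mul_right_comm, ← h _ hp _ (inv_mem hp), mul_inv_cancel, h1, one_mul]⟩

theorem Ch.comm (h : Ch P P χ) {a : Γ} (ha : a ∈ ⁅P, P⁆) : a ∈ P ∧ χ a = 1 := by
  induction ha using Subgroup.closure_induction with
  | mem x hx =>
    obtain ⟨p, hp, q, hq, rfl⟩ := hx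
    refine ⟨mul_mem (mul_mem (mul_mem hp hq) (inv_mem hp)) (inv_mem hq), ?_⟩
    rw [commutatorElement_def, h.mul _ (mul_mem (mul_mem hp hq) (inv_mem hp)) _ (inv_mem hq), h.conj _ hp _ hq, h.inv hq,
      mul_inv_cancel]
  | one => exact ⟨one_mem _, h.one⟩
  | mul x y _ _ hx hy => exact ⟨mul_mem hx.1 hy.1, by rw [h.mul _ hx.1 _ hy.1, hx.2, hy.2, mul_one]⟩
  | inv x _ hx => exact ⟨inv_mem hx.1, by rw [h.inv hx.1, hx.2, inv_one]⟩

theorem conj_comm_mem (hL : ∀ p ∈ P, ∀ a ∈ L, p * a * p⁻¹ ∈ L) : ∀ p ∈ P, ∀ a ∈ ⁅L, P⁆, p * a * p⁻¹ ∈ ⁅L, P⁆ := by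
  intro p hp a ha
  induction ha using Subgroup.closure_induction with
  | mem x hx =>
    obtain ⟨u, hu, v, hv, rfl⟩ := hx
    rw [conjugate_commutatorElement]
    exact Subgroup.commutator_mem_commutator (hL p hp u hu) (mul_mem (mul_mem hp hv) (inv_mem hp))
  | one => simp
  | mul x y _ _ hx hy => rw [← conj_mul]; exact mul_mem hx hy
  | inv x _ hx => rw [← conj_inv]; exact inv_mem hx

theorem Ch.right (hL : ∀ p ∈ P, ∀ a ∈ L, p * a * p⁻¹ ∈ L) (h : Ch P ⁅L, P⁆ χ) {u : Γ} (hu : u ∈ L) :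
    Ch P P fun v => χ ⁅u, v⁆ := ch_self fun a ha b hb => by
  have h1 := Subgroup.commutator_mem_commutator hu hb
  rw [show ⁅u, a * b⁆ = ⁅u, a⁆ * (a * ⁅u, b⁆ * a⁻¹) by simp only [commutatorElement_def]; group,
    h.mul _ (Subgroup.commutator_mem_commutator hu ha) _ (conj_comm_mem hL _ ha _ h1), h.conj _ ha _ h1]

theorem Ch.left (hP : L ≤ P) (hL : ∀ p ∈ P, ∀ a ∈ L, p * a * p⁻¹ ∈ L) (h : Ch P ⁅L, P⁆ χ) {v : Γ} (hv : v ∈ P) :
    Ch P L fun u => χ ⁅u, v⁆ := ⟨fun a ha b hb => by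
  have h1 := Subgroup.commutator_mem_commutator hb hv
  rw [show ⁅a * b, v⁆ = (a * ⁅b, v⁆ * a⁻¹) * ⁅a, v⁆ by simp only [commutatorElement_def]; group,
    h.mul _ (conj_comm_mem hL _ (hP ha) _ h1) _ (Subgroup.commutator_mem_commutator ha hv), h.conj _ (hP ha) _ h1,
    mul_comm], fun p hp a ha => by
  have h1 := mul_mem (mul_mem (inv_mem hp) hv) (inv_mem (inv_mem hp))
  rw [show ⁅p * a * p⁻¹, v⁆ = p * ⁅a, p⁻¹ * v * p⁻¹⁻¹⁆ * p⁻¹ by simp only [commutatorElement_def]; group,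
    h.conj _ hp _ (Subgroup.commutator_mem_commutator ha h1)]
  exact (h.right hL ha).conj _ (inv_mem hp) _ hv⟩

theorem Ch.dg (hP : L ≤ P) (hL : ∀ p ∈ P, ∀ a ∈ L, p * a * p⁻¹ ∈ L) (h : Ch P ⁅L, P⁆ χ) {k : V → Γ} (k1 : ∀ x, k x ∈ P)
    (k2 : ∀ x y, (k x * k y)⁻¹ * k (x + y) ∈ ⁅P, P⁆) {d : ℕ} {f : V → Γ} (f1 : ∀ x, f x ∈ L)
    (f2 : ∀ ψ : Γ → M, Ch P L ψ → Dg d fun x => ψ (f x)) : Dg (d + 1) fun x => χ ⁅f x, k x⁆ := by
  induction d generalizing f with
  | zero => exact fun a x => by simp only [f2 _ (h.left hP hL (k1 _)) _, div_one]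
  | succ d ih =>
    intro a
    have e : ∀ x, χ ⁅f (x + a), k (x + a)⁆ / χ ⁅f x, k x⁆ = χ ⁅(f x)⁻¹ * f (x + a), k x⁆ * χ ⁅f (x + a), k a⁆ := fun x => by
      have h1 := h.right hL (f1 (x + a))
      have h2 := h.left hP hL (k1 x)
      have h3 := h1.comm (k2 x a)
      have h4 := h1.mul _ (mul_mem (k1 x) (k1 a)) _ h3.1
      rw [mul_inv_cancel_left, h3.2, mul_one, h1.mul _ (k1 x) _ (k1 a)] at h4
      rw [h4, h2.mul _ (inv_mem (f1 x)) _ (f1 _), h2.inv (f1 x), div_eq_mul_inv]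
      simp only [mul_comm, mul_left_comm, mul_assoc]
    simp only [e]
    refine (ih (fun x => mul_mem (inv_mem (f1 x)) (f1 _)) fun ψ hψ => ?_).mul ((f2 _ (h.left hP hL (k1 a))).shift a)
    simpa only [hψ.mul _ (inv_mem (f1 _)) _ (f1 _), hψ.inv (f1 _), inv_mul_eq_div] using f2 ψ hψ a

/-- the lower central series of a subgroup -/
def γ (P : Subgroup Γ) : ℕ → Subgroup Γ
  | 0 => P
  | i + 1 => ⁅γ P i, P⁆

theorem γ_conj (i : ℕ) : ∀ p ∈ P, ∀ a ∈ γ P i, p * a * p⁻¹ ∈ γ P i := by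
  induction i with
  | zero => exact fun p hp a ha => mul_mem (mul_mem hp ha) (inv_mem hp)
  | succ i ih => exact conj_comm_mem ih

theorem γ_succ_le (i : ℕ) : γ P (i + 1) ≤ γ P i := Subgroup.commutator_le.2 fun a ha p hp => by
  simpa [commutatorElement_def, mul_assoc] using mul_mem ha (γ_conj i p hp _ (inv_mem ha))

theorem γ_le (i : ℕ) : γ P i ≤ P := by
  induction i with
  | zero => exact le_rfl
  | succ i ih => exact (γ_succ_le i).trans ih

theorem dg_γ (τ : V → Γ →* Γ) (h1 : ∀ x, ∀ g ∈ P, τ x g ∈ P)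
    (h2 : ∀ x y, ∀ g ∈ P, (τ x g * τ y g)⁻¹ * τ (x + y) g ∈ ⁅P, P⁆) (i : ℕ) {g : Γ} (hg : g ∈ γ P i) :
    (∀ x, τ x g ∈ γ P i) ∧ ∀ χ : Γ → M, Ch P (γ P i) χ → Dg (i + 2) fun x => χ (τ x g) := by
  induction i generalizing g with
  | zero =>
    refine ⟨fun x => h1 x g hg, fun χ hχ a b x => ?_⟩
    have e : ∀ x, χ (τ (x + a) g) = χ (τ x g) * χ (τ a g) := fun x => by
      have h3 := hχ.comm (h2 x a g hg)
      have h4 := hχ.mul _ (mul_mem (h1 x g hg) (h1 a g hg)) _ h3.1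
      rwa [mul_inv_cancel_left, h3.2, mul_one, hχ.mul _ (h1 x g hg) _ (h1 a g hg)] at h4
    simp [e]
  | succ i ih =>
    induction hg using Subgroup.closure_induction with
    | mem x hx =>
      obtain ⟨u, hu, v, hv, rfl⟩ := hx
      simp only [map_commutatorElement]
      exact ⟨fun x => Subgroup.commutator_mem_commutator ((ih hu).1 x) (h1 x v hv), fun χ hχ =>
        hχ.dg (γ_le i) (γ_conj i) (fun x => h1 x v hv) (fun x y => h2 x y v hv) (ih hu).1 (ih hu).2⟩
    | one => exact ⟨by simp, fun χ hχ => by simpa [hχ.one] using dg_one _⟩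
    | mul x y _ _ hx hy =>
      exact ⟨fun a => by simpa using mul_mem (hx.1 a) (hy.1 a), fun χ hχ => by
        simpa only [map_mul, hχ.mul _ (hx.1 _) _ (hy.1 _)] using (hx.2 χ hχ).mul (hy.2 χ hχ)⟩
    | inv x _ hx =>
      exact ⟨fun a => by simpa using hx.1 a, fun χ hχ => by simpa only [map_inv, hχ.inv (hx.1 _)] using (hx.2 χ hχ).inv⟩

theorem mem_γ_succ [Finite V] (τ : V → Γ →* Γ) (h1 : ∀ x, ∀ g ∈ P, τ x g ∈ P)
    (h2 : ∀ x y, ∀ g ∈ P, (τ x g * τ y g)⁻¹ * τ (x + y) g ∈ ⁅P, P⁆) {i : ℕ} (hi : 2 ^ (i + 1) < Nat.card V) {z : Γ}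
    (hz : z ∈ γ P i) (h0 : τ 0 z = 1) (h : ∀ x, x ≠ 0 → τ x z = z) : z ∈ γ P (i + 1) := by
  classical
  let N := (γ P (i + 1)).subgroupOf (γ P i)
  have : N.Normal := ⟨fun a ha p => γ_conj (P := P) (i + 1) p.1 (γ_le i p.2) a.1 ha⟩
  let _ : CommGroup (γ P i ⧸ N) := { (inferInstance : Group (γ P i ⧸ N)) with
    mul_comm := fun a b => by
      obtain ⟨a, rfl⟩ := QuotientGroup.mk_surjective a
      obtain ⟨b, rfl⟩ := QuotientGroup.mk_surjective b
      refine QuotientGroup.eq.2 (show _ ∈ γ P (i + 1) from ?_)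
      simpa [γ, commutatorElement_def, mul_assoc] using
        Subgroup.commutator_mem_commutator (inv_mem b.2) (inv_mem (γ_le i a.2)) }
  let χ : Γ → γ P i ⧸ N := fun a => if ha : a ∈ γ P i then (⟨a, ha⟩ : γ P i) else 1
  have hχ : Ch P (γ P i) χ := ⟨fun a ha b hb => by simp only [χ, dif_pos ha, dif_pos hb, dif_pos (mul_mem ha hb)]; rfl,
    fun p hp a ha => by
      simp only [χ, dif_pos ha, dif_pos (γ_conj i p hp a ha)]
      symm
      refine QuotientGroup.eq.2 (show _ ∈ γ P (i + 1) from ?_)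
      simpa [γ, commutatorElement_def, mul_assoc] using Subgroup.commutator_mem_commutator (inv_mem ha) hp⟩
  obtain ⟨l, hl, hs⟩ := exists_list (V := V) (d := i + 2) (by rw [pow_succ]; omega)
  have h3 := ((dg_γ τ h1 h2 i hz).2 χ hχ).mul (g := fun _ => (χ z)⁻¹) fun a => by simpa using dg_one _
  have h4 := Dg.eq_one (hl ▸ h3) fun s a b => by simp [h _ (hs s a b)]
  simp only [h0, hχ.one, one_mul, inv_eq_one, χ, dif_pos hz, QuotientGroup.eq_one_iff] at h4
  exact h4

end Cfsg.Agent.H15.Wt
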