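import Cfsg.Agent.H15.Ree9
import Cfsg.Agent.H15.Ree10
import Cfsg.Agent.H15.Wt
import Cfsg.Agent.H27.Schur

/-! The Schur multiplier of the small Ree groups. -/

set_option autoImplicit false

namespace Cfsg.Agent.H15.Ree.Model

open Matrix MulAction Wt H27
open scoped commutatorElement MatrixGroups

variable {G : Type*} [Group G] {F : Type*} [Field F] [CharP F 3] [Finite F] (M : Model G F)

omit [Finite F] in
theorem S_comm (a b c x y z : F) : ⁅M.S a b c, M.S x y z⁆ = M.S 0 (x * M.σ a - a * M.σ x)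
    (a * y - b * x + (a + x) * (x * M.σ a - a * M.σ x) + a * x * (M.σ x - M.σ a) - a ^ 2 * M.σ x + x ^ 2 * M.σ a) := by
  rw [commutatorElement_def, mul_inv_eq_iff_eq_mul, mul_inv_eq_iff_eq_mul, S_mul, S_mul, S_mul, S_inj]
  exact ⟨by ring, by ring, by ring⟩

theorem mem_comm (hF : 3 < Nat.card F) (b c : F) : M.S 0 b c ∈ ⁅M.Q, M.Q⁆ := by
  have h1 : ∀ c, M.S 0 0 c ∈ ⁅M.Q, M.Q⁆ := fun c => by
    simpa [S_comm] using Subgroup.commutator_mem_commutator (M.S_mem 1 0 0) (M.S_mem 0 c 0)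
  have h2 : ∀ {b c}, M.S 0 b c ∈ ⁅M.Q, M.Q⁆ → ∀ c', M.S 0 b c' ∈ ⁅M.Q, M.Q⁆ := fun {b c} h c' => by
    simpa [S_mul] using mul_mem h (h1 (c' - c))
  by_cases hb : b = 0
  · exact hb ▸ h1 c
  obtain ⟨k, k1, k2⟩ := exists_unit (F := F) hF
  have h3 := sub_ne_zero.2 (M.σ_ne_self k1 k2)
  obtain ⟨l, hl⟩ := M.exists_norm (div_ne_zero hb h3)
  have h4 := h2 (M.S_comm .. ▸ Subgroup.commutator_mem_commutator (M.S_mem (l * k) 0 0) (M.S_mem l 0 0))
  have h5 := h2 (M.S_comm .. ▸ Subgroup.commutator_mem_commutator (M.S_mem l 0 0) (M.S_mem (l * k) 0 0))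
  rcases hl with hl | hl
  · convert h4 c using 2; rw [map_mul]; field_simp at hl; linear_combination -hl
  · convert h5 c using 2; rw [map_mul]; field_simp at hl; linear_combination hl

omit [Finite F] in
theorem γ_three {g : G} (hg : g ∈ γ M.Q 3) : g = 1 := by
  have h1 : γ M.Q 1 ≤ M.Q ⊓ Subgroup.centralizer {g | ∃ b c, g = M.S 0 b c} := Subgroup.commutator_le.2 (by
    rintro _ ⟨a, b, c, rfl⟩ _ ⟨x, y, z, rfl⟩
    refine ⟨M.S_comm .. ▸ M.S_mem _ _ _, ?_⟩
    rintro _ ⟨u, v, rfl⟩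
    simp [S_comm, S_mul, add_comm])
  have h2 : γ M.Q 2 ≤ Subgroup.centralizer M.Q := Subgroup.commutator_le.2 (by
    rintro g hg _ ⟨x, y, z, rfl⟩ _ ⟨u, v, w, rfl⟩
    obtain ⟨⟨a, b, c, rfl⟩, h⟩ := h1 hg
    obtain rfl : a = 0 := by simpa [S_mul, S_inj, add_comm] using h _ ⟨1, 0, rfl⟩
    simp [S_comm, S_mul, add_comm])
  exact (show γ M.Q 3 ≤ ⊥ from Subgroup.commutator_le.2 fun a ha b hb =>
    commutatorElement_eq_one_iff_mul_comm.2 (h2 ha b hb).symm) hg

include M

theorem closedAt_three (hF : 16 < Nat.card F) : ClosedAt 3 G := by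
  classical
  refine closedAt_of Nat.prime_three fun Γ _ _ π hπ _ hk z hz => ?_
  choose t ht using hπ.1
  let P := M.Q.comap π
  have h0 : ∀ z, π z = 1 → z ∈ ⁅P, P⁆ := fun z hz =>
    mem_commutator_comap hπ hz _ (coprime_orderOf_of_pow Nat.prime_three (hk z hz) M.not_dvd_index_Q)
  have h1 : ∀ g b c, π g = M.S 0 b c → g ∈ ⁅P, P⁆ := fun g b c e => by
    have := M.mem_comm (by omega) b c
    rw [← Subgroup.map_comap_eq_self_of_surjective hπ.1 M.Q, ← Subgroup.map_commutator] at this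
    obtain ⟨g', a1, a2⟩ := this
    obtain ⟨z, a3, rfl⟩ := eq_mul_ker (a2.trans e.symm)
    exact mul_mem a1 (h0 z a3)
  let τ : F → Γ →* Γ := fun x => if h : x = 0 then 1 else (MulAut.conj (t (M.D (Units.mk0 x h)))).toMonoidHom
  have h2 : ∀ x g a b c, π g = M.S a b c → ∃ b c, π (τ x g) = M.S (x * a) b c := fun x g a b c e => by
    by_cases h : x = 0
    · exact ⟨0, 0, by simp [τ, h, M.S_zero]⟩
    · exact ⟨_, _, by simp only [τ, dif_neg h]; simp [ht, e, D_conj_S]; rfl⟩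
  have key := fun i hi hi' => mem_γ_succ (P := P) τ (fun x g ⟨a, b, c, e⟩ => (h2 x g a b c e).elim fun _ h => h.elim fun _ h =>
      ⟨_, _, _, h⟩) (fun x y g ⟨a, b, c, e⟩ => by
    obtain ⟨_, _, e1⟩ := h2 x g a b c e
    obtain ⟨_, _, e2⟩ := h2 y g a b c e
    obtain ⟨_, _, e3⟩ := h2 (x + y) g a b c e
    exact h1 _ _ _ (by rw [map_mul, map_inv, map_mul, e1, e2, e3, S_mul, S_inv, S_mul, add_mul, neg_add_cancel]))
    (i := i) hi (z := z) hi' (by simp [τ]) fun x h => by simp [τ, dif_neg h, ker_comm hπ.2.1 hz]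
  have h3 := key 3 (by omega) (key 2 (by omega) (key 1 (by omega) (h0 z hz)))
  have h4 : ∀ i, γ P i ≤ (γ M.Q i).comap π := fun i => by
    induction i with
    | zero => exact le_rfl
    | succ i ih =>
      exact Subgroup.commutator_le.2 fun a ha b hb => by
        simpa [γ, map_commutatorElement] using Subgroup.commutator_mem_commutator (g₁ := π a) (g₂ := π b) (ih ha) hb
  exact (show γ P 4 ≤ ⊥ from Subgroup.commutator_le.2 fun a ha b hb =>
    commutatorElement_eq_one_iff_mul_comm.2 (ker_comm hπ.2.1 (M.γ_three (h4 3 ha)) b).symm) h3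

theorem closedAt_two (hF : 3 < Nat.card F) : ClosedAt 2 G := by
  have := M.finite
  refine closedAt_of Nat.prime_two fun Γ _ _ π hπ _ hk z hz => ?_
  obtain ⟨k, k1, k2⟩ := exists_unit (F := F) hF
  have hp : commutator SL(2, F) = ⊤ := Matrix.SL2.commutator_eq_top (a := k) k.ne_zero fun e =>
    (sq_eq_one_iff.1 e).elim (fun e => k1 (Units.ext e)) fun e => k2 (Units.ext e)
  have h1 : ∀ a b, π a = M.h0 → π b * M.h0 = M.h0 * π b → b * a = a * b := fun a b ha hb => by
    have key : ∀ g b, π b = M.φ g → Commute a b := fun g => by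
      induction (hp.ge (Subgroup.mem_top g)) using Subgroup.closure_induction with
      | mem x hx =>
        obtain ⟨u, -, v, -, rfl⟩ := hx
        obtain ⟨u', hu⟩ := hπ.1 (M.φ u)
        obtain ⟨v', hv⟩ := hπ.1 (M.φ v)
        intro b e
        obtain ⟨w, a1, rfl⟩ := eq_mul_ker (σ := π) (a := ⁅u', v'⁆) (a' := b) (by simp [map_commutatorElement, hu, hv, e])
        exact (commute_comm_of_ker hπ.2.1 (by rw [ha, hu]; exact M.h0_φ u) (by rw [ha, hv]; exact M.h0_φ v)).mul_right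
          (ker_comm hπ.2.1 a1 a)
      | one => exact fun b e => ker_comm hπ.2.1 (e.trans (map_one _)) a
      | mul x y _ _ hx hy =>
        intro b e
        obtain ⟨u, hu⟩ := hπ.1 (M.φ x)
        simpa using (hx u hu).mul_right (hy (u⁻¹ * b) (by simp [hu, e]))
      | inv x _ hx => exact fun b e => by simpa using (hx b⁻¹ (by simp [e])).inv_right
    obtain ⟨g, e | e⟩ := M.cent_h0.1 hb
    · exact (key g b e).symm
    · simpa using ((Commute.refl a).mul_right (key g (a⁻¹ * b) (by simp [ha, e]))).symm.eq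
  obtain ⟨P⟩ : Nonempty (Sylow 2 G) := inferInstance
  refine (show ⁅(P : Subgroup G).comap π, (P : Subgroup G).comap π⁆ ≤ ⊥ from Subgroup.commutator_le.2 fun a ha b hb =>
    commutatorElement_eq_one_iff_mul_comm.2 ?_)
    (mem_commutator_comap hπ hz _ (coprime_orderOf_of_pow Nat.prime_two (hk z hz) P.not_dvd_index))
  by_cases h : π a = 1
  · exact (ker_comm hπ.2.1 h b).symm
  obtain ⟨x, hx⟩ := isConj_iff.1 (M.isConj_h0 h (M.sq_of_isPGroup P.isPGroup' ha)).symm
  obtain ⟨x, rfl⟩ := hπ.1 x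
  have := h1 (x * a * x⁻¹) (x * b * x⁻¹) (by simpa using hx) (by
    rw [← hx, map_mul, map_mul, map_inv]; exact conj_comm _ (M.comm_of_isPGroup P.isPGroup' hb ha))
  simpa only [conj_mul, mul_left_inj, mul_right_inj] using this.symm

theorem closedAt {m : ℕ} (hm : 1 ≤ m) (hq : Nat.card F = 3 ^ (2 * m + 1)) {r : ℕ} (hr : r.Prime) : ClosedAt r G := by
  have := M.finite
  have := Fact.mk hr
  have h27 : 27 ≤ Nat.card F := hq ▸ Nat.pow_le_pow_right (n := 3) (i := 3) (by decide) (by omega)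
  by_cases h2 : r = 2
  · exact h2 ▸ M.closedAt_two (by omega)
  by_cases h3 : r = 3
  · exact h3 ▸ M.closedAt_three (by omega)
  by_cases h : r ∣ Nat.card G
  · obtain ⟨A, T, hA, hd, -⟩ := M.exists_torus hm hq hr h2 h3 h
    obtain ⟨P⟩ : Nonempty (Sylow r G) := inferInstance
    obtain ⟨x, hx⟩ := hA.conj_le P.isPGroup' hd
    have := hA.cyc
    exact closedAt_of_cyclic_subgroup hr P P.not_dvd_index
      (map_conj_inv (P : Subgroup G) x ▸ isCyclic_map_conj (Subgroup.isCyclic_of_le hx) x⁻¹)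
  exact closedAt_of_not_dvd hr h

end Cfsg.Agent.H15.Ree.Model
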